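import Cfsg.Agent.H43.CoprimeExt
import Cfsg.Agent.H43.DetGalois
import Cfsg.Agent.H43.Constituents
import Cfsg.Agent.H43.CharTools
import Cfsg.Agent.H45.Galois
import Cfsg.Agent.H25.CharInd
import Cfsg.Agent.H25.IndRep
import Mathlib

/-!
# Extending an invariant character of a normal Hall subgroup with Galois invariant values
-/

namespace Cfsg.Agent.H68.LinBound

open Module Cfsg.Agent

variable {X : Type*} [Group X] [Fintype X] (K : Subgroup X) [K.Normal] [Fintype K]

/-- The inertia group. -/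
noncomputable def inertia (θ : Cfsg.IrrCharacter K) : Subgroup X where
  carrier := {x | H43.irrConj K x θ = θ}
  one_mem' := Subtype.ext (funext fun n => by simp [H43.irrConj_apply])
  mul_mem' := fun {x y} hx hy => by
    show H43.irrConj K (x * y) θ = θ
    rw [← H43.irrConj_irrConj, hx, hy]
  inv_mem' := fun {x} hx => by
    show H43.irrConj K x⁻¹ θ = θ
    calc H43.irrConj K x⁻¹ θ = H43.irrConj K x⁻¹ (H43.irrConj K x θ) := by rw [hx]
      _ = H43.irrConj K (x * x⁻¹) θ := H43.irrConj_irrConj K x⁻¹ x θ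
      _ = θ := by rw [mul_inv_cancel]; exact Subtype.ext (funext fun n => by simp [H43.irrConj_apply])

theorem mem_inertia {θ : Cfsg.IrrCharacter K} {x : X} :
    x ∈ inertia K θ ↔ H43.irrConj K x θ = θ := Iff.rfl

theorem le_inertia (θ : Cfsg.IrrCharacter K) : K ≤ inertia K θ := by
  intro k hk
  refine Subtype.ext (funext fun n => ?_)
  rw [H43.irrConj_apply]
  have : MulAut.conjNormal k n = (⟨k, hk⟩ : K) * n * (⟨k, hk⟩ : K)⁻¹ := Subtype.ext (by simp)
  rw [this]
  exact H26.irr_conj θ n _

/-- Raising to a power congruent to one fixes a subgroup of that order. -/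
theorem pow_eq_self {k : ℕ} (hk : k ≡ 1 [MOD Nat.card K]) (n : K) : n ^ k = n := by
  conv_rhs => rw [← pow_one n]
  exact pow_eq_pow_iff_modEq.2 (hk.of_dvd (orderOf_dvd_natCard n))

theorem pow_mem_iff_of_coprime {G : Type*} [Group G] [Finite G] (H : Subgroup G) {k : ℕ}
    (hk : k.Coprime (Nat.card G)) (g : G) : g ^ k ∈ H ↔ g ∈ H := by
  refine ⟨fun h => ?_, fun h => H.pow_mem h k⟩
  have hg : (orderOf g).Coprime k :=
    (hk.coprime_dvd_right (orderOf_dvd_natCard g)).symm
  obtain ⟨m, hm⟩ := exists_pow_eq_self_of_coprime hg.symm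
  rw [← hm]
  exact H.pow_mem h m

/-- An irreducible character of a normal Hall subgroup gives a Galois invariant character whose
restriction is the sum over its orbit. -/
theorem exists_orbit_ext (hcop : Nat.Coprime K.index (Nat.card K)) (θ : Cfsg.IrrCharacter K) :
    ∃ Ψ : X → ℂ, Cfsg.IsCharacter X Ψ ∧
      (∀ n : K, Ψ n = ∑ η ∈ Finset.univ.image (fun x : X => H43.irrConj K x θ), η.1 n) ∧
      ∀ k : ℕ, k.Coprime (Nat.card X) → k ≡ 1 [MOD Nat.card K] → ∀ g : X, Ψ (g ^ k) = Ψ g := by
  classical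
  set T := inertia K θ with hT
  set e := Subgroup.subgroupOfEquivOfLe (le_inertia K θ) with he
  haveI : (K.subgroupOf T).Normal := inferInstance
  set θ' : Cfsg.IrrCharacter (K.subgroupOf T) := H43.irrCongr e θ with hθ'
  have hidx : (K.subgroupOf T).index ∣ K.index :=
    ⟨T.index, (Subgroup.relIndex_mul_index (le_inertia K θ)).symm⟩
  have hcardK : Nat.card (K.subgroupOf T) = Nat.card K := Nat.card_congr e.toEquiv
  have hcT : Nat.Coprime (K.subgroupOf T).index (Nat.card (K.subgroupOf T)) := by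
    rw [hcardK]; exact hcop.coprime_dvd_left hidx
  have hco : Nat.Coprime (K.subgroupOf T).index (Cfsg.detOrder θ'.1 * Cfsg.charDegree θ'.1) :=
    Nat.Coprime.mul_right (hcT.coprime_dvd_right (H43.detOrder_dvd_card (H26.irr_isCharacter θ')))
      (hcT.coprime_dvd_right (H43.irr_charDegree_dvd θ'))
  have hinv : ∀ x : T, H43.irrConj (K.subgroupOf T) x θ' = θ' := by
    intro x
    refine Subtype.ext (funext fun n => ?_)
    have hx := congrArg (fun η : Cfsg.IrrCharacter K => η.1 (e n)) x.2
    simp only [H43.irrConj_apply] at hx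
    simp only [H43.irrConj_apply, hθ', H43.irrCongr_apply]
    rw [← hx]
    congr 1
  obtain ⟨χ, hres, hdet⟩ := H43.exists_coprime_ext θ' hinv hco
  refine ⟨Cfsg.indFun T χ.1, H25.isCharacter_indFun T (H26.irr_isCharacter χ), ?_, ?_⟩
  · intro n
    have hval : ∀ x : X, Cfsg.extendByZero T χ.1 (x⁻¹ * n * x) =
        (H43.irrConj K x⁻¹ θ).1 n := by
      intro x
      have hmem : x⁻¹ * (n : X) * x ∈ K := Subgroup.Normal.conj_mem' inferInstance _ n.2 x
      rw [H25.extendByZero_of_mem _ _ (le_inertia K θ hmem)]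
      have := hres ⟨⟨x⁻¹ * n * x, le_inertia K θ hmem⟩, hmem⟩
      rw [H43.irrConj_apply, this, hθ', H43.irrCongr_apply]
      refine congrArg θ.1 (Subtype.ext ?_)
      show x⁻¹ * (n : X) * x = ((MulAut.conjNormal x⁻¹ n : K) : X)
      simp
    rw [H25.indFun_apply, Finset.sum_congr rfl fun x _ => hval x,
      Fintype.sum_equiv (Equiv.inv X) (fun x : X => (H43.irrConj K x⁻¹ θ).1 n)
        (fun x => (H43.irrConj K x θ).1 n) (fun x => rfl),
      ← Finset.sum_fiberwise_of_maps_to (t := Finset.univ.image (fun x : X => H43.irrConj K x θ))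
        (g := fun x : X => H43.irrConj K x θ)
        (fun x hx => Finset.mem_image_of_mem _ hx), Finset.mul_sum]
    refine Finset.sum_congr rfl fun η hη => ?_
    obtain ⟨y, -, rfl⟩ := Finset.mem_image.1 hη
    rw [Finset.sum_congr rfl (fun x hx => by rw [(Finset.mem_filter.1 hx).2]), Finset.sum_const,
      nsmul_eq_mul]
    have hc : (Finset.univ.filter
        (fun x : X => H43.irrConj K x θ = H43.irrConj K y θ)).card = Nat.card T := by
      rw [← Fintype.card_subtype, ← Nat.card_eq_fintype_card]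
      refine Nat.card_congr (Equiv.subtypeEquiv (Equiv.mulRight y⁻¹) fun x => ?_)
      show _ ↔ x * y⁻¹ ∈ T
      rw [hT, mem_inertia, ← H43.irrConj_irrConj]
      constructor
      · intro h
        rw [h, H43.irrConj_irrConj, mul_inv_cancel]
        exact Subtype.ext (funext fun n => by simp [H43.irrConj_apply])
      · intro h
        have h2 := congrArg (H43.irrConj K y) h
        simp only [H43.irrConj_irrConj, mul_assoc, inv_mul_cancel, mul_one] at h2
        exact h2
    rw [hc, ← mul_assoc, inv_mul_cancel₀ (Nat.cast_ne_zero.2 Nat.card_pos.ne'), one_mul]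
  · intro k hk hk1 g
    have hkT : k.Coprime (Nat.card T) := hk.coprime_dvd_right (Subgroup.card_subgroup_dvd_card T)
    have hgal : H45.galIrr hkT χ = χ := by
      obtain ⟨σ, hσ⟩ := H45.exists_ringAut_pow (Nat.card_pos (α := T)).ne' hkT
      refine H43.coprime_ext_unique θ' χ (H45.galIrr hkT χ)
        (hcT.coprime_dvd_right (H43.irr_charDegree_dvd θ')) hres (fun n => ?_)
        (by rw [hdet]; exact hcT.coprime_dvd_right (H43.detOrder_dvd_card (H26.irr_isCharacter θ')))
        ?_
      · show χ.1 ((n : T) ^ k) = θ'.1 n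
        rw [← Subgroup.coe_pow, pow_eq_self (K.subgroupOf T) (by rwa [hcardK]) n, hres]
      · have : (H45.galIrr hkT χ).1 = fun g => σ (χ.1 g) := funext fun g =>
          (H45.ringAut_char (H26.irr_isCharacter χ) σ hσ g).symm
        rw [this, H43.detOrder_ringAut (H26.irr_isCharacter χ), hdet]
        exact hcT.coprime_dvd_right (H43.detOrder_dvd_card (H26.irr_isCharacter θ'))
    rw [H25.indFun_apply, H25.indFun_apply]
    congr 1
    refine Finset.sum_congr rfl fun x _ => ?_
    have hcp : (x⁻¹ * g * x) ^ k = x⁻¹ * g ^ k * x := by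
      have := conj_pow (i := k) (a := x⁻¹) (b := g)
      rwa [inv_inv] at this
    rw [← hcp]
    by_cases h : x⁻¹ * g * x ∈ T
    · rw [H25.extendByZero_of_mem _ _ h, H25.extendByZero_of_mem _ _ (T.pow_mem h k)]
      exact congrArg (fun η : Cfsg.IrrCharacter T => η.1 ⟨_, h⟩) hgal
    · rw [H25.extendByZero_of_notMem _ _ h,
        H25.extendByZero_of_notMem _ _ (fun h' => h ((pow_mem_iff_of_coprime T hk _).1 h'))]

/-- An invariant character of a normal Hall subgroup extends with Galois invariant values. -/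
theorem exists_invariant_ext (hcop : Nat.Coprime K.index (Nat.card K)) :
    ∀ (d : ℕ) (ψ : K → ℂ), Cfsg.IsCharacter K ψ → ψ 1 = d →
      (∀ (x : X) (n : K), ψ (MulAut.conjNormal x n) = ψ n) →
      ∃ Ψ : X → ℂ, Cfsg.IsCharacter X Ψ ∧ (∀ n : K, Ψ n = ψ n) ∧
        ∀ k : ℕ, k.Coprime (Nat.card X) → k ≡ 1 [MOD Nat.card K] → ∀ g : X, Ψ (g ^ k) = Ψ g := by
  classical
  intro d
  induction d using Nat.strong_induction_on with
  | _ d ih =>
    intro ψ hψ hd hinv
    have hexp := H43.eq_sum_mult hψ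
    by_cases hall : ∀ θ : Cfsg.IrrCharacter K, H43.mult ψ θ = 0
    · refine ⟨0, H26.isCharacter_zero X, fun n => ?_, fun _ _ _ _ => rfl⟩
      rw [hexp]
      simp [hall]
    push Not at hall
    obtain ⟨θ, hθ⟩ := hall
    set O := Finset.univ.image (fun x : X => H43.irrConj K x θ) with hO
    have hmO : ∀ η ∈ O, H43.mult ψ η = H43.mult ψ θ := by
      intro η hη
      obtain ⟨x, -, rfl⟩ := Finset.mem_image.1 hη
      unfold H43.mult
      congr 2
      have h := H43.classInner_congr (MulAut.conjNormal x : MulAut K) ψ θ.1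
      rw [← h]
      congr 1
      funext n
      exact (hinv x n).symm
    set φ : K → ℂ := ∑ η : Cfsg.IrrCharacter K,
      ((H43.mult ψ η - if η ∈ O then 1 else 0 : ℕ) : ℂ) • η.1 with hφ
    have hφc : Cfsg.IsCharacter K φ :=
      H26.isCharacter_sum _ _ fun η _ => H26.isCharacter_nsmul (H26.irr_isCharacter η) _
    have hsplit : ∀ n : K, ψ n = φ n + ∑ η ∈ O, η.1 n := by
      intro n
      conv_lhs => rw [hexp]
      have : ∑ η ∈ O, η.1 n =
          ∑ η : Cfsg.IrrCharacter K, ((if η ∈ O then 1 else 0 : ℕ) : ℂ) • η.1 n := by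
        simp [Finset.sum_ite_mem]
      simp only [hφ, Finset.sum_apply, Pi.smul_apply, this, ← Finset.sum_add_distrib, ← add_smul]
      refine Finset.sum_congr rfl fun η _ => ?_
      rw [← Nat.cast_add, Nat.sub_add_cancel]
      split_ifs with h
      · rw [hmO η h]; omega
      · omega
    obtain ⟨Ψ₁, h1c, h1r, h1k⟩ := exists_orbit_ext K hcop θ
    obtain ⟨d₁, hd₁⟩ : ∃ d₁ : ℕ, φ 1 = d₁ := by
      obtain ⟨m, ρ, hρ⟩ := hφc
      exact ⟨_, by rw [← hρ, ρ.char_one]⟩
    have hlt : d₁ < d := by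
      have hpos : 0 < ∑ η ∈ O, Cfsg.charDegree η.1 :=
        Finset.sum_pos (fun η _ => H43.irr_charDegree_pos η)
          ⟨_, Finset.mem_image_of_mem _ (Finset.mem_univ 1)⟩
      have h := hsplit 1
      rw [hd, hd₁, Finset.sum_congr rfl fun η _ => H43.irr_charDegree_spec η] at h
      have : d = d₁ + ∑ η ∈ O, Cfsg.charDegree η.1 := by exact_mod_cast h
      omega
    have hOinv : ∀ (x : X) (n : K),
        ∑ η ∈ O, η.1 (MulAut.conjNormal x n) = ∑ η ∈ O, η.1 n := by
      intro x n
      have e1 := h1r (MulAut.conjNormal x n)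
      rw [MulAut.conjNormal_apply] at e1
      rw [← hO] at e1
      rw [← e1, H26.isClassFunction_of_isCharacter h1c (n : X) x, h1r n]
    have hφinv : ∀ (x : X) (n : K), φ (MulAut.conjNormal x n) = φ n := by
      intro x n
      have h1 := hsplit (MulAut.conjNormal x n)
      rw [hinv, hOinv, hsplit n] at h1
      exact (add_right_cancel h1).symm
    obtain ⟨Ψ₂, h2c, h2r, h2k⟩ := ih d₁ hlt φ hφc hd₁ hφinv
    refine ⟨Ψ₂ + Ψ₁, H26.isCharacter_add h2c h1c, fun n => ?_, fun k hk hk1 g => ?_⟩
    · rw [Pi.add_apply, h2r, h1r, hsplit n]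
    · rw [Pi.add_apply, Pi.add_apply, h2k k hk hk1, h1k k hk hk1]

end Cfsg.Agent.H68.LinBound
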