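import Cfsg.Agent.H68.LinBound.Schur
import Cfsg.Agent.H68.LinBound.Extend
import Cfsg.Agent.H44.HallHigman
import Cfsg.Agent.H19.Cores
import Cfsg.Agent.H84.PSolvable
import Cfsg.Agent.S0001
import Mathlib

/-!
# The `p`-part of `G / O_p(G)` for a `p`-solvable linear group
-/

namespace Cfsg.Agent.H68.LinBound

open Module Cfsg.Agent
open scoped Pointwise

variable {G : Type*} [Group G] [Finite G] {p : ℕ} [hp : Fact p.Prime]

/-- A complement of `O_p` in `O_{pp'}` whose normalizer supplements `O_p`. -/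
theorem exists_supplement (O : Subgroup G) [O.Normal] (hO : IsPGroup p O)
    (Kb : Subgroup (G ⧸ O)) [Kb.Normal] (hKb : (Nat.card Kb).Coprime p) :
    ∃ K : Subgroup G, K.map (QuotientGroup.mk' O) = Kb ∧ (Nat.card K).Coprime p ∧
      (Subgroup.normalizer (K : Set G)).map (QuotientGroup.mk' O) = ⊤ := by
  classical
  set q := QuotientGroup.mk' O with hq
  set M := Kb.comap q with hMdef
  haveI : M.Normal := (inferInstance : Kb.Normal).comap q
  have hqs : Function.Surjective q := QuotientGroup.mk'_surjective O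
  have hker : q.ker = O := QuotientGroup.ker_mk' O
  have hOM : O ≤ M := hker.symm.le.trans (Subgroup.ker_le_comap q Kb)
  have hrel : O.relIndex M = Nat.card Kb := by
    have h1 := Subgroup.relIndex_comap (⊥ : Subgroup (G ⧸ O)) q M
    rwa [MonoidHom.comap_bot, hker, hMdef, Subgroup.map_comap_eq_self_of_surjective hqs,
      Subgroup.relIndex_bot_left] at h1
  obtain ⟨a, ha⟩ := hO.exists_card_eq
  have hcopO : (Nat.card O).Coprime (Nat.card Kb) := by
    rw [ha]; exact (hKb.symm).pow_left a
  have hcardN : Nat.card (O.subgroupOf M) = Nat.card O :=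
    Nat.card_congr (Subgroup.subgroupOfEquivOfLe hOM).toEquiv
  have hidxN : (O.subgroupOf M).index = Nat.card Kb := hrel
  have hcopN : (Nat.card (O.subgroupOf M)).Coprime (O.subgroupOf M).index := by
    rw [hcardN, hidxN]; exact hcopO
  obtain ⟨H, hH⟩ := Subgroup.exists_right_complement'_of_coprime hcopN
  have hcH : Nat.card H = Nat.card Kb := by
    rw [← hidxN]
    exact hH.symm.index_eq_card.symm
  set K := H.map M.subtype with hKdef
  have hcK : Nat.card K = Nat.card Kb := by
    rw [hKdef, Subgroup.card_map_of_injective M.subtype_injective, hcH]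
  have hKM : K ≤ M := Subgroup.map_subtype_le H
  refine ⟨K, ?_, hcK ▸ hKb, ?_⟩
  · refine le_antisymm ((Subgroup.map_mono hKM).trans (Subgroup.map_comap_le q Kb)) fun y hy => ?_
    obtain ⟨g, rfl⟩ := hqs y
    obtain ⟨⟨o, h⟩, ho⟩ := hH.2 (⟨g, hy⟩ : M)
    have hg : ((o : M) : G) * ((h : M) : G) = g := congrArg (fun z : M => (z : G)) ho
    refine ⟨(h : M), Subgroup.mem_map_of_mem _ h.2, ?_⟩
    rw [← hg, map_mul]
    have : q ((o : M) : G) = 1 := (QuotientGroup.eq_one_iff _).2 o.2
    rw [this, one_mul]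
  refine eq_top_iff.2 fun y _ => ?_
  obtain ⟨g, rfl⟩ := hqs y
  set H' := (K.map (MulAut.conj g).toMonoidHom).subgroupOf M with hH'
  have hle : K.map (MulAut.conj g).toMonoidHom ≤ M := by
    rintro _ ⟨x, hx, rfl⟩
    exact Subgroup.Normal.conj_mem inferInstance x (hKM hx) g
  have hcH' : Nat.card H' = Nat.card Kb := by
    rw [hH', Nat.card_congr (Subgroup.subgroupOfEquivOfLe hle).toEquiv,
      Subgroup.card_map_of_injective (MulAut.conj g).injective, hcK]
  have hH'c : Subgroup.IsComplement' (O.subgroupOf M) H' := by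
    refine Subgroup.isComplement'_of_coprime ?_ ?_
    · rw [hcH', ← hidxN]; exact Subgroup.card_mul_index _
    · rw [hcH', hcardN]; exact hcopO
  have hsolvN : Group.IsSolvable (O.subgroupOf M) := by
    haveI : Group.IsNilpotent (O.subgroupOf M) :=
      (hO.comap_subtype (K := M)).isNilpotent
    infer_instance
  obtain ⟨m, hm⟩ := S0001.result (O.subgroupOf M) hcopN (Or.inl hsolvN) H H' hH hH'c
  -- `g⁻¹ m` normalizes `K`
  have hn : g⁻¹ * (m : G) ∈ Subgroup.normalizer (K : Set G) := by
    have hmap : K.map (MulAut.conj (g⁻¹ * (m : G))).toMonoidHom ≤ K := by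
      rintro _ ⟨x, hx, rfl⟩
      obtain ⟨h, hh, rfl⟩ := hx
      have h1 : MulAut.conj m h ∈ H' := hm ▸ Subgroup.smul_mem_pointwise_smul h _ H hh
      obtain ⟨k, hk, hk'⟩ := h1
      have : (MulAut.conj (g⁻¹ * (m : G))).toMonoidHom (M.subtype h) = k := by
        simp only [MulEquiv.coe_toMonoidHom, MulAut.conj_apply, Subgroup.coe_subtype] at hk' ⊢
        have hk'' : g * k * g⁻¹ = (m : G) * (h : G) * (m : G)⁻¹ := by
          simpa using hk'
        calc g⁻¹ * (m : G) * (h : G) * (g⁻¹ * (m : G))⁻¹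
            = g⁻¹ * ((m : G) * (h : G) * (m : G)⁻¹) * g := by group
          _ = g⁻¹ * (g * k * g⁻¹) * g := by rw [hk'']
          _ = k := by group
      rw [this]
      exact hk
    have heq : K.map (MulAut.conj (g⁻¹ * (m : G))).toMonoidHom = K :=
      Subgroup.eq_of_le_of_card_ge hmap
        (le_of_eq (Subgroup.card_map_of_injective (MulAut.conj _).injective).symm)
    rw [Subgroup.mem_normalizer_iff]
    intro x
    constructor
    · intro hx
      rw [← heq]
      exact ⟨x, hx, rfl⟩
    · intro hx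
      rw [← heq] at hx
      obtain ⟨z, hz, hz'⟩ := hx
      have : z = x := (MulAut.conj (g⁻¹ * (m : G))).injective hz'
      exact this ▸ hz
  obtain ⟨⟨o, h⟩, ho⟩ := hH.2 m
  have hg : ((o : M) : G) * ((h : M) : G) = m := congrArg (fun z : M => (z : G)) ho
  refine ⟨((h : M) : G) * (g⁻¹ * (m : G))⁻¹, ?_, ?_⟩
  · exact mul_mem (Subgroup.le_normalizer (Subgroup.mem_map_of_mem _ h.2)) (inv_mem hn)
  · have e : g = ((o : M) : G) * (((h : M) : G) * (g⁻¹ * (m : G))⁻¹) := by
      rw [← mul_assoc, hg]; group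
    conv_rhs => rw [e, map_mul, show q ((o : M) : G) = 1 from (QuotientGroup.eq_one_iff _).2 o.2, one_mul]

/-- The exponent of the `p`-part of `G / O_p(G)`. -/
theorem pCore_index_bound (χ : G → ℂ) (hχ : Cfsg.IsCharacter G χ)
    (hfaith : ∀ g : G, χ g = χ 1 → g = 1) (n : ℕ) (hn : χ 1 = n)
    (hsolv : Cfsg.IsPSolvable p G) :
    (Cfsg.pCore p G).index.factorization p ≤
      ∑ i ∈ Finset.range (n + 1), n / ((p - 1) * p ^ i) := by
  classical
  haveI hOn : (Cfsg.pCore p G).Normal := H19.pCore_normal p G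
  set O := Cfsg.pCore p G with hOdef
  set q := QuotientGroup.mk' O with hq
  have hqs : Function.Surjective q := QuotientGroup.mk'_surjective O
  set Kb := Cfsg.pPrimeCore p (G ⧸ O) with hKbdef
  haveI : Kb.Normal := H19.pPrimeCore_normal p _
  have hKbc : (Nat.card Kb).Coprime p := H19.pPrimeCore_coprime p
  have hHH : Subgroup.centralizer (Kb : Set (G ⧸ O)) ≤ Kb :=
    H44.centralizer_pPrimeCore_le (H84.isPSolvable_of_surjective _ hqs hsolv)
      (H19.pCore_quotient_pCore p)
  obtain ⟨K, hKmap, hKc, hNmap⟩ := exists_supplement O (H19.pCore_isPGroup p) Kb hKbc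
  -- a Sylow subgroup of the normalizer maps onto one of the quotient
  have hqN : Function.Surjective (q.comp (Subgroup.normalizer (K : Set G)).subtype) := by
    intro y
    obtain ⟨x, hx, rfl⟩ := hNmap.symm.le (Subgroup.mem_top y)
    exact ⟨⟨x, hx⟩, rfl⟩
  obtain ⟨S⟩ : Nonempty (Sylow p (Subgroup.normalizer (K : Set G))) := inferInstance
  set P1 := (S : Subgroup (Subgroup.normalizer (K : Set G))).map
    (Subgroup.normalizer (K : Set G)).subtype with hP1def
  have hP1card : Nat.card (P1.map q) = p ^ O.index.factorization p := by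
    rw [hP1def, Subgroup.map_map, ← Sylow.coe_mapSurjective hqN S, Sylow.card_eq_multiplicity,
      ← Subgroup.index_eq_card]
  have hP1 : IsPGroup p P1 := S.isPGroup'.map _
  have hP1N : P1 ≤ Subgroup.normalizer (K : Set G) := Subgroup.map_subtype_le _
  set X := K ⊔ P1 with hXdef
  haveI : Fintype X := Fintype.ofFinite _
  have hKX : K ≤ X := le_sup_left
  haveI : (K.subgroupOf X).Normal :=
    Subgroup.normal_subgroupOf_of_le_normalizer (sup_le Subgroup.le_normalizer hP1N)
  set K' := K.subgroupOf X with hK'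
  haveI : Fintype K' := Fintype.ofFinite _
  set P := P1.subgroupOf X with hPdef
  have hcK' : Nat.card K' = Nat.card K := Nat.card_congr (Subgroup.subgroupOfEquivOfLe hKX).toEquiv
  have hPp : IsPGroup p P := hP1.comap_subtype
  have hsup : P ⊔ K' = ⊤ := by
    rw [hPdef, hK', ← Subgroup.subgroupOf_sup le_sup_right hKX, sup_comm P1 K]
    exact Subgroup.subgroupOf_self X
  have hidx : ∃ b, K'.index = p ^ b := by
    obtain ⟨N, hN⟩ := hPp.exists_card_eq
    have : K'.index ∣ p ^ N := by
      rw [← hN, ← Subgroup.relIndex_top_right, ← hsup, Subgroup.relIndex_sup_right]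
      exact Subgroup.relIndex_dvd_card _ _
    obtain ⟨b, -, hb⟩ := (Nat.dvd_prime_pow hp.out).1 this
    exact ⟨b, hb⟩
  obtain ⟨b, hb⟩ := hidx
  have hcop : K'.index.Coprime (Nat.card K') := by
    rw [hb, hcK']; exact (hKc.symm).pow_left b
  -- the extended character
  have hψc : Cfsg.IsCharacter K' (fun k : K' => χ ((k : X) : G)) :=
    H26.isCharacter_comp hχ (X.subtype.comp K'.subtype)
  obtain ⟨Ψ, hΨc, hΨr, hΨk⟩ := exists_invariant_ext K' hcop n _ hψc (by simpa using hn)
    (fun x k => by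
      simp only [MulAut.conjNormal_apply, Subgroup.coe_mul, Subgroup.coe_inv]
      exact H26.isClassFunction_of_isCharacter hχ _ _)
  have hf1 : Ψ 1 = n := by
    have := hΨr 1
    simpa [hn] using this
  have hfP : Cfsg.IsCharacter P (fun x : P => Ψ x) := H26.isCharacter_comp hΨc P.subtype
  have hrat : ∀ (x : P) (k : ℕ), k.Coprime p → Ψ ((x ^ k : P) : X) = Ψ x := by
    intro x k hk
    obtain ⟨N, hN⟩ := hPp.exists_card_eq
    have hco : (p ^ N).Coprime (Nat.card K') := by rw [hcK']; exact (hKc.symm).pow_left N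
    obtain ⟨k', hk1, hk2⟩ := Nat.chineseRemainder hco k 1
    have hx : x ^ k' = x ^ k :=
      pow_eq_pow_iff_modEq.2 (hk1.of_dvd (hN ▸ orderOf_dvd_natCard x))
    rw [← hx, Subgroup.coe_pow]
    refine hΨk k' ?_ hk2 x
    rw [← K'.card_mul_index, hb]
    refine Nat.Coprime.mul_right ?_ ?_
    · rw [Nat.Coprime, hk2.gcd_eq, Nat.gcd_one_left]
    · rcases Nat.eq_zero_or_pos b with rfl | hb0
      · rw [pow_zero]; exact Nat.coprime_one_right k'
      refine Nat.Coprime.pow_right b ?_
      rcases Nat.eq_zero_or_pos N with rfl | hN0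
      · have h2 : P = ⊥ := Subgroup.card_eq_one.1 (by rw [hN, pow_zero])
        have h3 : K'.index = 1 := by
          rw [← Subgroup.relIndex_top_right, ← hsup, h2, bot_sup_eq, Subgroup.relIndex_self]
        rw [hb] at h3
        exact absurd h3 (Nat.one_lt_pow hb0.ne' hp.out.one_lt).ne'
      · have := hk1.of_dvd (dvd_pow_self p hN0.ne')
        rw [Nat.Coprime, this.gcd_eq]
        exact hk
  obtain ⟨Kf, hKf, e, he, hle⟩ := schur_rational hPp hfP (by simpa using hf1) hrat
  refine le_trans ?_ hle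
  set φ : P →* G ⧸ O := (q.comp X.subtype).comp P.subtype with hφ
  have hrange : φ.range = P1.map q := by
    ext y
    simp only [hφ, MonoidHom.mem_range, Subgroup.mem_map]
    constructor
    · rintro ⟨x, rfl⟩; exact ⟨_, x.2, rfl⟩
    · rintro ⟨x, hx, rfl⟩; exact ⟨⟨⟨x, (le_sup_right : P1 ≤ X) hx⟩, hx⟩, rfl⟩
  obtain ⟨d, ρ, hρ⟩ := hΨc
  have hker : Kf ≤ φ.ker := by
    intro g hg
    have hg1 : ρ (g : X) = LinearMap.id := by
      rw [← H25.char_eq_degree_iff, hρ, (hKf g).1 hg]
      rw [← hρ, ρ.char_one] at hf1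
      exact hf1.symm
    have hcomm : ∀ k ∈ K, ((g : X) : G) * k * ((g : X) : G)⁻¹ * k⁻¹ = 1 := by
      intro k hk
      have hgN : ((g : X) : G) ∈ Subgroup.normalizer (K : Set G) := hP1N g.2
      have hmem : ((g : X) : G) * k * ((g : X) : G)⁻¹ * k⁻¹ ∈ K :=
        mul_mem ((Subgroup.mem_normalizer_iff.1 hgN k).1 hk) (K.inv_mem hk)
      set c : X := (g : X) * ⟨k, hKX hk⟩ * (g : X)⁻¹ * ⟨k, hKX hk⟩⁻¹ with hc
      have hρc : ρ c = LinearMap.id := by
        have hginv : ρ ((g : X)⁻¹) = 1 := by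
          have := map_mul ρ ((g : X)) ((g : X)⁻¹)
          rw [mul_inv_cancel, map_one, hg1] at this
          rw [this]; rfl
        rw [hc, map_mul, map_mul, map_mul, hg1, hginv, ← Module.End.one_eq_id, one_mul, mul_one,
          ← map_mul, mul_inv_cancel, map_one]
      have hΨc' : Ψ c = n := by
        rw [← hρ, (H25.char_eq_degree_iff ρ c).2 hρc]
        rw [← hρ, ρ.char_one] at hf1
        exact hf1
      have hcK : c ∈ K' := by
        rw [hK', Subgroup.mem_subgroupOf]
        simpa [hc] using hmem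
      apply hfaith
      rw [hn, ← hΨc']
      have := hΨr ⟨c, hcK⟩
      rw [this]
      simp [hc]
    rw [MonoidHom.mem_ker]
    have hcent : φ g ∈ Subgroup.centralizer (Kb : Set (G ⧸ O)) := by
      rw [Subgroup.mem_centralizer_iff]
      intro y hy
      rw [← hKmap] at hy
      obtain ⟨k, hk, rfl⟩ := hy
      have h1 := hcomm k hk
      have h2 : k * ((g : X) : G) = ((g : X) : G) * k := by
        rw [mul_inv_eq_one, mul_inv_eq_iff_eq_mul] at h1
        exact h1.symm
      show q k * q ((g : X) : G) = q ((g : X) : G) * q k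
      rw [← map_mul, h2, map_mul]
    have hmem := hHH hcent
    obtain ⟨a, ha⟩ := IsPGroup.iff_orderOf.1 hPp g
    have hd1 : orderOf (φ g) ∣ p ^ a := ha ▸ orderOf_map_dvd φ g
    have hd2 : orderOf (φ g) ∣ Nat.card Kb := Subgroup.orderOf_dvd_natCard Kb hmem
    rw [← orderOf_eq_one_iff]
    exact Nat.eq_one_of_dvd_coprimes ((hKbc.symm).pow_left a) hd1 hd2
  have hcard : Nat.card φ.range ∣ p ^ e := by
    rw [← Subgroup.index_ker, ← he]
    exact Subgroup.index_dvd_of_le hker
  rw [hrange, hP1card] at hcard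
  exact (Nat.pow_dvd_pow_iff_le_right hp.out.one_lt).1 hcard

end Cfsg.Agent.H68.LinBound
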