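import Cfsg.Agent.H43.IntCong
import Cfsg.Agent.H43.CharTools
import Cfsg.Agent.H45.Galois
import Cfsg.Agent.H25.CharValues
import Mathlib

/-!
# Schur's bound for rational valued characters of `p`-groups
-/

namespace Cfsg.Agent.H68.LinBound

open Module Cfsg.Agent
open scoped BigOperators

variable {G : Type*} [Group G] [Finite G]

/-- A character sums to a natural multiple of the group order. -/
theorem exists_sum_eq [Fintype G] {f : G → ℂ} (hf : Cfsg.IsCharacter G f) :
    ∃ m : ℕ, ∑ g : G, f g = (Nat.card G : ℂ) * m := by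
  obtain ⟨m, hm⟩ := H26.exists_nat_classInner_irr hf (H26.oneIrr G)
  refine ⟨m, ?_⟩
  rw [Cfsg.classInner] at hm
  rw [← hm, ← mul_assoc, mul_inv_cancel₀ (Nat.cast_ne_zero.2 Nat.card_pos.ne'), one_mul]
  exact Finset.sum_congr rfl fun y _ => by simp [H26.oneIrr_val]

theorem isCharacter_one : Cfsg.IsCharacter G (1 : G → ℂ) :=
  H26.irr_isCharacter (H26.oneIrr G)

theorem isCharacter_pow {f : G → ℂ} (hf : Cfsg.IsCharacter G f) :
    ∀ i : ℕ, Cfsg.IsCharacter G (f ^ i)
  | 0 => by rw [pow_zero]; exact isCharacter_one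
  | i + 1 => by rw [pow_succ]; exact H26.isCharacter_mul (isCharacter_pow hf i) hf

/-- Integer polynomials in a character sum to an integer multiple of the group order. -/
theorem exists_sum_aeval [Fintype G] {f : G → ℂ} (hf : Cfsg.IsCharacter G f)
    (Q : Polynomial ℤ) : ∃ z : ℤ, ∑ g : G, Polynomial.aeval (f g) Q = (Nat.card G : ℂ) * z := by
  induction Q using Polynomial.induction_on' with
  | add q r hq hr =>
    obtain ⟨a, ha⟩ := hq
    obtain ⟨b, hb⟩ := hr
    refine ⟨a + b, ?_⟩
    simp only [map_add, Finset.sum_add_distrib, ha, hb]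
    push_cast
    ring
  | monomial i c =>
    obtain ⟨m, hm⟩ := exists_sum_eq (isCharacter_pow hf i)
    refine ⟨c * m, ?_⟩
    simp only [Pi.pow_apply] at hm
    simp only [Polynomial.aeval_monomial, ← Finset.mul_sum, hm, algebraMap_int_eq, eq_intCast]
    push_cast
    ring

variable {p : ℕ} [hp : Fact p.Prime]

/-- A value of a character at a `p`-element is congruent to the degree. -/
theorem intCong_degree {f : G → ℂ} (hf : Cfsg.IsCharacter G f) {x : G} {a : ℕ}
    (hx : x ^ p ^ a = 1) : H43.IntCong p (f x ^ p ^ a) (f 1) := by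
  classical
  obtain ⟨m, ρ, rfl⟩ := hf
  obtain ⟨b, μ, hb, hμ, hsum⟩ := H25.exists_eigenbasis ρ x
  have hpow : ∀ (k : ℕ) (i), (ρ (x ^ k)) (b i) = μ i ^ k • b i := by
    intro k i
    induction k with
    | zero => simp
    | succ k ih => rw [pow_succ', map_mul, Module.End.mul_apply, ih, map_smul, hb, smul_smul,
        pow_succ]
  have hsum' : ρ.character (x ^ p ^ a) = ∑ i, μ i ^ p ^ a :=
    H25.trace_eq_sum_of_eigenbasis _ b _ (hpow _)
  have hint : ∀ i, IsIntegral ℤ (μ i) := fun i => IsIntegral.of_pow (orderOf_pos x)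
    (by rw [hμ i]; exact isIntegral_one)
  have key : ∀ s : Finset (Fin (finrank ℂ (Fin m → ℂ))),
      H43.IntCong p ((∑ i ∈ s, μ i) ^ p ^ a) (∑ i ∈ s, μ i ^ p ^ a) := by
    intro s
    induction s using Finset.induction with
    | empty =>
      rw [Finset.sum_empty, Finset.sum_empty, zero_pow (pow_pos hp.out.pos a).ne']
      exact H43.IntCong.refl p 0
    | insert i s hi ih =>
      rw [Finset.sum_insert hi, Finset.sum_insert hi]
      obtain ⟨r, hr⟩ := exists_add_pow_prime_pow_eq hp.out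
        (⟨μ i, hint i⟩ : integralClosure ℤ ℂ)
        ⟨∑ j ∈ s, μ j, IsIntegral.sum _ fun j _ => hint j⟩ a
      have hr' := congrArg (fun z : integralClosure ℤ ℂ => (z : ℂ)) hr
      push_cast at hr'
      rw [hr']
      refine H43.IntCong.trans (b := μ i ^ p ^ a + (∑ j ∈ s, μ j) ^ p ^ a)
        ?_ ((H43.IntCong.refl p _).add ih)
      exact ⟨_, ((hint i).mul (IsIntegral.sum _ fun j _ => hint j)).mul r.2, by ring⟩
  rw [hx] at hsum'
  rw [hsum, hsum']
  exact key _

/-- A rational value at a nontrivial `p`-element is bounded below by `-n/(p-1)` and congruent to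
the degree `n`. -/
theorem value_bounds {f : G → ℂ} (hf : Cfsg.IsCharacter G f) {n : ℕ} (hn : f 1 = n)
    (hG : IsPGroup p G)
    (hrat : ∀ (x : G) (k : ℕ), k.Coprime p → f (x ^ k) = f x) (x : G) (hx : f x ≠ n) :
    ∃ j : ℕ, 1 ≤ j ∧ (p - 1) * j ≤ n ∧ f x = (n : ℂ) - (p : ℂ) * (j : ℂ) := by
  classical
  haveI : Fintype G := Fintype.ofFinite G
  obtain ⟨d, ρ, hρ⟩ := hf
  have hd : (finrank ℂ (Fin d → ℂ)) = n := by
    rw [← hρ, ρ.char_one] at hn
    exact_mod_cast hn
  have hnorm : ∀ y : G, ‖f y‖ ≤ (n : ℝ) := fun y => by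
    rw [← hρ, ← hd]
    exact H25.norm_char_le ρ y
  have hf : Cfsg.IsCharacter G f := ⟨d, ρ, hρ⟩
  -- the value is an integer
  obtain ⟨v, hv⟩ : ∃ v : ℤ, f x = (v : ℂ) := by
    refine H45.exists_int_of_forall_ringAut (H45.isIntegral_char' hf x) fun σ => ?_
    obtain ⟨k, hk, hσ⟩ := H45.exists_pow_of_ringAut σ (Nat.card_pos (α := G)).ne'
    rw [H45.ringAut_char hf σ hσ]
    rcases eq_or_ne x 1 with rfl | hx1
    · rw [one_pow]
    obtain ⟨N, hN⟩ := hG.exists_card_eq
    rw [hN] at hk
    rcases Nat.eq_zero_or_pos N with rfl | hN0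
    · rw [pow_zero] at hN
      exact absurd ((Nat.card_eq_one_iff_unique.1 hN).1.elim x 1) hx1
    · exact hrat x k ((Nat.coprime_pow_right_iff hN0 _ _).1 hk)
  obtain ⟨a, ha⟩ := IsPGroup.iff_orderOf.1 hG x
  obtain ⟨b, rfl⟩ : ∃ b, a = b + 1 := by
    refine ⟨a - 1, ?_⟩
    rcases Nat.eq_zero_or_pos a with rfl | h
    · rw [pow_zero, orderOf_eq_one_iff] at ha
      subst ha
      exact absurd hn hx
    · omega
  -- congruence
  obtain ⟨j, hj⟩ : (p : ℤ) ∣ (n : ℤ) - v := by
    have h := intCong_degree (p := p) hf (x := x) (a := b + 1) (by rw [← ha, pow_orderOf_eq_one])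
    rw [hn, hv] at h
    have h' : (v ^ p ^ (b + 1)) ≡ (n : ℤ) [ZMOD p] :=
      H43.IntCong.int_modEq hp.out.ne_zero (by push_cast; exact h)
    rw [← ZMod.intCast_eq_intCast_iff] at h'
    push_cast at h'
    rw [ZMod.pow_card_pow] at h'
    refine (ZMod.intCast_zmod_eq_zero_iff_dvd _ p).1 ?_
    push_cast
    rw [h', sub_self]
  -- the lower bound, from the sum over the cyclic group generated by `x`
  have hlow : -(n : ℤ) ≤ ((p : ℤ) - 1) * v := by
    set q := p ^ b with hq
    have hord : orderOf x = p * q := by rw [ha, pow_succ', hq]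
    obtain ⟨m, hm⟩ : ∃ m : ℕ, ∑ i ∈ Finset.range (p * q), f (x ^ i) = ((p * q : ℕ) : ℂ) * m := by
      obtain ⟨m, hm⟩ := exists_sum_eq
        (H26.isCharacter_comp hf (Subgroup.zpowers x).subtype)
      rw [Nat.card_zpowers, hord] at hm
      refine ⟨m, ?_⟩
      rw [← hm, ← hord, Finset.sum_range (fun i => f (x ^ i))]
      exact Fintype.sum_equiv (finEquivZPowers (isOfFinOrder_of_finite x)) _ _ fun i => rfl
    set D := (Finset.range (p * q)).filter (fun i => p ∣ i)
    have hDcard : D.card = q := by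
      rw [show D = (Finset.range q).image (fun i => p * i) from ?_,
        Finset.card_image_of_injective _ (mul_right_injective₀ hp.out.ne_zero), Finset.card_range]
      ext i
      simp only [D, Finset.mem_filter, Finset.mem_range, Finset.mem_image]
      constructor
      · rintro ⟨hi, c, rfl⟩
        exact ⟨c, Nat.lt_of_mul_lt_mul_left hi, rfl⟩
      · rintro ⟨c, hc, rfl⟩
        exact ⟨Nat.mul_lt_mul_of_pos_left hc hp.out.pos, dvd_mul_right _ _⟩
    rw [← Finset.sum_filter_add_sum_filter_not (Finset.range (p * q)) (fun i => p ∣ i)] at hm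
    have hgen : ∀ i ∈ (Finset.range (p * q)).filter (fun i => ¬ p ∣ i), f (x ^ i) = (v : ℂ) := by
      intro i hi
      rw [hrat x i ((hp.out.coprime_iff_not_dvd.2 (Finset.mem_filter.1 hi).2).symm), hv]
    rw [Finset.sum_congr rfl hgen, Finset.sum_const, nsmul_eq_mul] at hm
    have hcount := Finset.card_filter_add_card_filter_not (s := Finset.range (p * q))
      (fun i => p ∣ i)
    rw [Finset.card_range] at hcount
    have hre := congrArg Complex.re hm
    simp only [Complex.add_re, Complex.re_sum, Complex.mul_re, Complex.natCast_re,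
      Complex.natCast_im, Complex.intCast_re, Complex.intCast_im, mul_zero, sub_zero] at hre
    have hle : ∑ i ∈ D, (f (x ^ i)).re ≤ (q : ℝ) * n := by
      rw [← hDcard]
      calc _ ≤ ∑ _i ∈ D, (n : ℝ) :=
            Finset.sum_le_sum fun i _ => (Complex.re_le_norm _).trans (hnorm _)
        _ = _ := by rw [Finset.sum_const, nsmul_eq_mul]
    have hpos : (0 : ℝ) ≤ ((p * q : ℕ) : ℝ) * m := by positivity
    have hq0 : (0 : ℝ) < q := by
      have : 0 < q := pow_pos hp.out.pos b
      exact_mod_cast this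
    have hc : (((Finset.range (p * q)).filter (fun i => ¬ p ∣ i)).card : ℝ) + q = (p : ℝ) * q := by
      rw [← hDcard]
      have : ((D.card + ((Finset.range (p * q)).filter (fun i => ¬ p ∣ i)).card : ℕ) : ℝ) =
          ((p * q : ℕ) : ℝ) := by rw [hcount]
      push_cast at this
      rw [hDcard] at this
      rw [hDcard]
      linarith
    have hfinal : (0 : ℝ) ≤ (q : ℝ) * ((((p : ℤ) - 1) * v + n : ℤ) : ℝ) := by
      push_cast
      have e : (((Finset.range (p * q)).filter (fun i => ¬ p ∣ i)).card : ℝ) =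
          ((p : ℝ) - 1) * q := by linarith
      rw [e] at hre
      nlinarith [hre, hle, hpos]
    have := (mul_nonneg_iff_of_pos_left hq0).1 hfinal
    have : (0 : ℤ) ≤ ((p : ℤ) - 1) * v + n := by exact_mod_cast this
    linarith
  have hvn : v ≠ (n : ℤ) := fun h => hx (by rw [hv, h]; norm_num)
  have hvle : v ≤ (n : ℤ) := by
    have h := hnorm x
    rw [hv, Complex.norm_intCast] at h
    have : |(v : ℝ)| ≤ n := h
    have h2 := le_of_abs_le this
    exact_mod_cast h2
  have hp0 : (0 : ℤ) < p := by exact_mod_cast hp.out.pos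
  have hj0 : 0 < j := by
    have hlt : 0 < (n : ℤ) - v := by omega
    rw [hj] at hlt
    exact (pos_iff_pos_of_mul_pos hlt).1 hp0
  refine ⟨j.toNat, by omega, ?_, ?_⟩
  · have h1 : (((p : ℤ) - 1) * j) * p ≤ (n : ℤ) * p := by nlinarith
    have h2 := le_of_mul_le_mul_right h1 hp0
    have h3 : (((p - 1) * j.toNat : ℕ) : ℤ) ≤ (n : ℤ) := by
      push_cast [Nat.cast_sub hp.out.one_le, Int.toNat_of_nonneg hj0.le]
      exact h2
    exact_mod_cast h3
  · have h1 : ((j.toNat : ℕ) : ℂ) = (j : ℂ) := by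
      rw [← Int.cast_natCast, Int.toNat_of_nonneg hj0.le]
    rw [hv, h1, show v = (n : ℤ) - p * j by linarith]
    push_cast
    ring

/-- The exponent in Schur's bound. -/
theorem factorial_exp (n : ℕ) :
    ∀ e : ℕ, p ^ e ∣ p ^ (n / (p - 1)) * (n / (p - 1)).factorial →
      e ≤ ∑ i ∈ Finset.range (n + 1), n / ((p - 1) * p ^ i) := by
  intro e he
  set m := n / (p - 1) with hm
  rcases Nat.lt_or_ge e m with h | h
  · refine h.le.trans ?_
    refine le_trans ?_ (Finset.single_le_sum (f := fun i => n / ((p - 1) * p ^ i))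
      (fun i _ => Nat.zero_le _) (Finset.mem_range.2 (Nat.succ_pos n)))
    simp [hm]
  obtain ⟨r, rfl⟩ : ∃ r, e = m + r := ⟨e - m, by omega⟩
  rw [pow_add, Nat.mul_dvd_mul_iff_left (pow_pos hp.out.pos m)] at he
  have hmn : m ≤ n := Nat.div_le_self _ _
  rw [hp.out.pow_dvd_factorial_iff (b := n + 1)
    (Nat.lt_succ_of_le ((Nat.log_le_self p m).trans hmn))] at he
  rw [Finset.range_eq_Ico, Finset.sum_eq_sum_Ico_succ_bot (Nat.succ_pos n)]
  simp only [pow_zero, mul_one, ← Nat.div_div_eq_div_mul, ← hm, Nat.div_one]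
  simpa using he

/-- Schur's bound: a `p`-group with a character of degree `n` with rational values has
kernel of index at most `p` to the sum of `n / ((p-1) p^i)`. -/
theorem schur_rational (hG : IsPGroup p G) {f : G → ℂ} (hf : Cfsg.IsCharacter G f) {n : ℕ}
    (hn : f 1 = n) (hrat : ∀ (x : G) (k : ℕ), k.Coprime p → f (x ^ k) = f x) :
    ∃ K : Subgroup G, (∀ g, g ∈ K ↔ f g = (n : ℂ)) ∧
      ∃ e : ℕ, K.index = p ^ e ∧ e ≤ ∑ i ∈ Finset.range (n + 1), n / ((p - 1) * p ^ i) := by
  classical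
  haveI : Fintype G := Fintype.ofFinite G
  obtain ⟨d, ρ, hρ⟩ := hf
  have hd : (finrank ℂ (Fin d → ℂ)) = n := by
    rw [← hρ, ρ.char_one] at hn
    exact_mod_cast hn
  set K := MonoidHom.ker ρ with hK
  have hmem : ∀ g, g ∈ K ↔ f g = (n : ℂ) := fun g => by
    rw [← hρ, ← hd, H25.char_eq_degree_iff, MonoidHom.mem_ker, Module.End.one_eq_id]
  refine ⟨K, hmem, ?_⟩
  obtain ⟨N, hN⟩ := hG.exists_card_eq
  obtain ⟨e, -, he⟩ := (Nat.dvd_prime_pow hp.out).1 (hN ▸ K.index_dvd_card)
  refine ⟨e, he, factorial_exp n e ?_⟩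
  set m := n / (p - 1) with hm
  set Q : Polynomial ℤ := ∏ j ∈ Finset.range m,
    (Polynomial.X - Polynomial.C ((n : ℤ) - p * (j + 1 : ℕ))) with hQ
  have heval : ∀ y : ℂ, Polynomial.aeval y Q =
      ∏ j ∈ Finset.range m, (y - ((n : ℂ) - (p : ℂ) * ((j + 1 : ℕ) : ℂ))) := fun y => by
    simp [hQ, map_prod, map_sub]
  have hzero : ∀ g ∉ K, Polynomial.aeval (f g) Q = 0 := fun g hg => by
    obtain ⟨j, hj1, hjn, hj⟩ := value_bounds ⟨d, ρ, hρ⟩ hn hG hrat g (fun h => hg ((hmem g).2 h))
    have hjm : j ≤ m := by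
      rw [hm, Nat.le_div_iff_mul_le (by have := hp.out.two_le; omega), mul_comm]
      exact hjn
    rw [heval]
    refine Finset.prod_eq_zero (i := j - 1) (Finset.mem_range.2 (by omega)) ?_
    rw [hj, Nat.sub_add_cancel hj1, sub_self]
  have hone : ∀ g ∈ K, Polynomial.aeval (f g) Q = ((p ^ m * m.factorial : ℕ) : ℂ) := fun g hg => by
    rw [heval, (hmem g).1 hg]
    simp only [sub_sub_cancel]
    rw [Finset.prod_mul_distrib, Finset.prod_const, Finset.card_range, ← Nat.cast_prod,
      Finset.prod_range_add_one_eq_factorial]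
    push_cast
    ring
  obtain ⟨z, hz⟩ := exists_sum_aeval ⟨d, ρ, hρ⟩ Q
  rw [← Finset.sum_filter_add_sum_filter_not Finset.univ (· ∈ K),
    Finset.sum_congr rfl (fun g hg => hone g (Finset.mem_filter.1 hg).2),
    Finset.sum_eq_zero (s := Finset.univ.filter (¬ · ∈ K))
      (fun g hg => hzero g (Finset.mem_filter.1 hg).2), add_zero, Finset.sum_const,
    nsmul_eq_mul] at hz
  have hcK : (Finset.univ.filter (· ∈ K)).card = Nat.card K := by
    rw [Nat.card_eq_fintype_card, Fintype.card_subtype]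
  rw [hcK, ← K.card_mul_index] at hz
  push_cast at hz
  have hz' : ((p ^ m * m.factorial : ℕ) : ℂ) = (K.index : ℂ) * z := by
    push_cast
    refine mul_left_cancel₀ (Nat.cast_ne_zero.2 (Nat.card_pos (α := K)).ne') ?_
    linear_combination hz
  rw [← he]
  refine Int.natCast_dvd_natCast.1 ⟨z, ?_⟩
  exact_mod_cast hz'

end Cfsg.Agent.H68.LinBound
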